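-- Team project OELM (S5990), regime [R2E], package [ELLB] (helper65): assembly from
-- [RPM], [PEEL], [APLUS], [DUAL], [PERP], [SUME], [NDEVEN].
import Mathlib
import Cfsg.Agent.Lib.Helper12.OElmE.Defs

set_option autoImplicit false
open scoped MatrixGroups
open Matrix

namespace Cfsg.Agent.Lib.Helper65.OElmE

open Cfsg.Agent.Lib.Helper23.OHyp Cfsg.Agent.Lib.Helper44.OElp
open Cfsg.Agent.Lib.Helper12.PHyp Cfsg.Agent.Lib.Helper12.OElmE

universe u

/-- [ELLB] not of a-type on the whole space, which is not of plus type. -/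
theorem pkgEllB_of (hRPM : PkgRPM.{u}) (hPeel : Cfsg.Agent.Lib.Helper12.PHyp.PkgPeel.{u})
    (hAPlus : PkgAPlus.{u}) (hDual : PkgDual.{u})
    (hPerp : Cfsg.Agent.Lib.Helper23.OHyp.PkgPerp.{u})
    (hSumE : Cfsg.Agent.Lib.Helper44.OElp.PkgSumE.{u})
    (_hE : Cfsg.Agent.Lib.Helper12.PHyp.PkgNdEven.{u}) :
    Cfsg.Agent.Lib.Helper12.OElmE.PkgEllB.{u} := by
  intro F _ _ ι _ _ Q x hStd hnP hnA k m hcard hk hme hm hmk hkm
  have hQ := hStd.nondeg
  have hdet : IsUnit x.det := hStd.det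
  have htop : Module.finrank F (⊤ : Submodule F (ι → F)) = 2 * k + 2 := by
    rw [finrank_top, Module.finrank_fintype_fun_eq_card, hcard]
  have hInvTop : Cfsg.Agent.Lib.Helper23.OHyp.Inv x (⊤ : Submodule F (ι → F)) := le_top
  have hNdTop : Nd Q (⊤ : Submodule F (ι → F)) := by
    intro w _ hw0
    obtain ⟨⟨a, ha⟩, ⟨b, hb⟩⟩ := hQ.nondegenerate w hw0
    exact ⟨⟨a, Submodule.mem_top, ha⟩, ⟨b, Submodule.mem_top, hb⟩⟩
  obtain ⟨j, hj⟩ := hme
  by_cases hcase : k + 2 ≤ m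
  · -- dual case: `m₁ = 2k + 2 - m`
    have hH : HypIn Q x ⊤ (2 * k + 2 - m) :=
      hPeel F ι Q x hStd (2 * k + 2 - m) (by rw [Nat.even_iff]; omega) ⊤ hInvTop hNdTop hnA
        (by rw [htop]; omega)
    have h := hDual F ι Q x hStd ⊤ hInvTop hNdTop hnP (2 * k + 2 - m) hH
    rw [htop] at h
    have e : 2 * k + 2 - (2 * k + 2 - m) = m := by omega
    rwa [e] at h
  · -- `m ≤ k + 1`: split off an invariant elliptic plane
    obtain ⟨P, -, hPI, hPN, hPnP, hPf⟩ :=
      hRPM F ι Q x hStd ⊤ hInvTop hNdTop (by rw [htop]; omega) hnA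
    obtain ⟨V1, -, hV1I, hV1N, hPerp1, hsup, hfin⟩ :=
      hPerp F ι Q hQ x hStd.isom hdet ⊤ P le_top hInvTop hPI hNdTop hPN
    have hV1f : Module.finrank F V1 = 2 * k := by
      rw [htop, hPf] at hfin
      omega
    obtain ⟨-, -, hiff⟩ := hSumE F ι Q hQ P V1 hPN hV1N hPerp1
    have hV1P : Plus Q V1 := by
      have h1 := hiff (by rw [hPf]; exact even_two) (by rw [hV1f]; exact even_two_mul k)
      rw [hsup] at h1
      by_contra hc
      exact hnP (h1.2 ⟨fun h => absurd h hPnP, fun h => absurd h hc⟩)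
    have hm2e : Even (m - 2) := by rw [Nat.even_iff]; omega
    have hH : HypIn Q x V1 (m - 2) := by
      by_cases hA1 : AType Q x V1
      · refine hAPlus F ι Q x hStd V1 hV1I hV1N hA1 hV1P (m - 2) hm2e (by rw [hV1f]; omega) ?_
        rcases hkm with hko | hm4
        · right
          rw [hV1f]
          obtain ⟨t, ht⟩ := hko
          omega
        · left
          omega
      · exact hPeel F ι Q x hStd (m - 2) hm2e V1 hV1I hV1N hA1 (by rw [hV1f]; omega)
    obtain ⟨W1, hW1le, hW1I, hW1N, hW1P, hW1f⟩ := hH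
    have hPerp2 : Perp Q P W1 := fun u hu v hv => hPerp1 u hu v (hW1le hv)
    obtain ⟨hN, hf, hiff2⟩ := hSumE F ι Q hQ P W1 hPN hW1N hPerp2
    refine ⟨P ⊔ W1, le_top, inv_sup hPI hW1I, hN, ?_, ?_⟩
    · intro hc
      have h1 := hiff2 (by rw [hPf]; exact even_two) (by rw [hW1f]; exact hm2e)
      exact hPnP ((h1.1 hc).2 hW1P)
    · rw [hf, hPf, hW1f]
      omega

end Cfsg.Agent.Lib.Helper65.OElmE

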